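import Cfsg.Agent.Solvable.MinNormal
import Cfsg.Agent.Solvable.SchurZassenhaus
import Cfsg.Agent.PGroup.Normal
import Mathlib.Tactic.Group

/-!
Core-free maximal subgroups.
-/

set_option autoImplicit false

open scoped Pointwise

namespace CfsgLib.CoreFree

variable {G : Type*} [Group G] {U N : Subgroup G}

theorem normal_le_eq_bot (hc : U.normalCore = ⊥) (hN : N.Normal) (h : N ≤ U) : N = ⊥ :=
  le_bot_iff.1 (hc ▸ Subgroup.normal_le_normalCore.2 h)

theorem sup_eq_top (hU : IsCoatom U) (hc : U.normalCore = ⊥) (hN : N.Normal) (hne : N ≠ ⊥) :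
    N ⊔ U = ⊤ :=
  hU.2 _ (lt_of_le_of_ne le_sup_right fun e => hne (normal_le_eq_bot hc hN (e ▸ le_sup_left)))

/-- A subgroup invariant under a supplement pair is normal. -/
theorem normal_of_sup_eq_top {A B W : Subgroup G} (h : A ⊔ B = ⊤)
    (hA : A ≤ Subgroup.normalizer (W : Set G)) (hB : B ≤ Subgroup.normalizer (W : Set G)) : W.Normal := by
  rw [← Subgroup.normalizer_eq_top_iff, eq_top_iff, ← h]
  exact sup_le hA hB

theorem le_normalizer_inf_of_le {A B : Subgroup G} (hA : A.Normal) {W : Subgroup G}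
    (hB : B ≤ Subgroup.normalizer (W : Set G)) : B ≤ Subgroup.normalizer ((A ⊓ W : Subgroup G) : Set G) := by
  intro b hb
  rw [Subgroup.mem_normalizer_iff]
  intro x
  have h1 := Subgroup.mem_normalizer_iff.1 (hB hb) x
  constructor
  · exact fun hx => ⟨hA.conj_mem x hx.1 b, h1.1 hx.2⟩
  · intro hx
    refine ⟨?_, h1.2 hx.2⟩
    have := hA.conj_mem _ hx.1 b⁻¹
    simpa [mul_assoc] using this

theorem centralizer_inf_eq_bot (hU : IsCoatom U) (hc : U.normalCore = ⊥) (hN : N.Normal) (hne : N ≠ ⊥) :
    Subgroup.centralizer (N : Set G) ⊓ U = ⊥ := by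
  haveI := hN
  refine normal_le_eq_bot hc (normal_of_sup_eq_top (sup_eq_top hU hc hN hne) ?_
    (le_normalizer_inf_of_le inferInstance Subgroup.le_normalizer)) inf_le_right
  intro n hn
  refine Subgroup.centralizer_le_normalizer _ (Subgroup.mem_centralizer_iff.2 fun x hx => ?_)
  exact ((Subgroup.mem_centralizer_iff.1 hx.1) n hn).symm

/-- A normal subgroup meeting a core-free maximal subgroup trivially complements it. -/
theorem isComplement'_of_inf (hU : IsCoatom U) (hc : U.normalCore = ⊥) (hN : N.Normal) (hne : N ≠ ⊥)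
    (hinf : N ⊓ U = ⊥) : Subgroup.IsComplement' N U := by
  haveI := hN
  exact Subgroup.isComplement'_of_disjoint_and_mul_eq_univ (disjoint_iff.2 hinf)
    (by rw [← Subgroup.normal_mul, sup_eq_top hU hc hN hne, Subgroup.coe_top])

/-- A normal subgroup that centralizes a nontrivial normal subgroup `N` and contains it complement
is all of the centralizer. -/
theorem centralizer_eq_of_le (hU : IsCoatom U) (hc : U.normalCore = ⊥) (hN : N.Normal) (hne : N ≠ ⊥)
    {A : Subgroup G} (hA : A.Normal) (hAne : A ≠ ⊥) (hAN : A ≤ Subgroup.centralizer (N : Set G)) :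
    Subgroup.centralizer (N : Set G) = A := by
  haveI := hA
  refine le_antisymm (fun c hcc => ?_) hAN
  obtain ⟨a, ha, u, hu, rfl⟩ := Subgroup.mem_sup_of_normal_left.1
    ((sup_eq_top hU hc hA hAne).symm ▸ Subgroup.mem_top c)
  have huC : u ∈ Subgroup.centralizer (N : Set G) := by
    have := mul_mem (inv_mem (hAN ha)) hcc
    simpa using this
  have : u = 1 := (Subgroup.eq_bot_iff_forall _).1 (centralizer_inf_eq_bot hU hc hN hne) u ⟨huC, hu⟩
  rw [this, mul_one]; exact ha

/-- An abelian nontrivial normal subgroup is self-centralizing and complemented. -/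
theorem abelian_normal (hU : IsCoatom U) (hc : U.normalCore = ⊥) (hN : N.Normal) (hne : N ≠ ⊥)
    (hab : IsMulCommutative N) :
    Subgroup.centralizer (N : Set G) = N ∧ Subgroup.IsComplement' N U := by
  have hle : N ≤ Subgroup.centralizer (N : Set G) := Subgroup.le_centralizer_iff_isMulCommutative.2 hab
  refine ⟨centralizer_eq_of_le hU hc hN hne hN hne hle, isComplement'_of_inf hU hc hN hne ?_⟩
  exact le_bot_iff.1 (le_trans (inf_le_inf_right _ hle) (centralizer_inf_eq_bot hU hc hN hne).le)

/-- A minimal normal `p`-subgroup commutes with every normal `p`-subgroup containing it. -/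
theorem commute_of_minimal {p : ℕ} [Fact p.Prime] [Finite G] {L : Subgroup G} (hL : L.Normal) (hLp : IsPGroup p L)
    (hN : N.Normal) (hne : N ≠ ⊥) (hNL : N ≤ L)
    (hmin : ∀ K : Subgroup G, K.Normal → K ≤ N → K = ⊥ ∨ K = N) :
    L ≤ Subgroup.centralizer (N : Set G) := by
  haveI := hL
  haveI := hN
  have hint : (Subgroup.center L).map L.subtype ⊓ N = N := by
    refine (hmin _ ?_ inf_le_right).resolve_left ?_
    · exact @Subgroup.normal_inf_normal _ _ _ _
        (@ConjAct.normal_of_characteristic_of_normal _ _ _ hL _ inferInstance) inferInstance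
    · intro hbot
      have hN' : N.subgroupOf L ≠ ⊥ := by
        rw [Ne, Subgroup.subgroupOf_eq_bot]
        intro hd
        exact hne (disjoint_self.1 (hd.mono_right hNL))
      obtain ⟨z, hz2, hz1⟩ := (Subgroup.bot_or_exists_ne_one
        ((N.subgroupOf L) ⊓ Subgroup.center L)).resolve_left (CfsgLib.PGroup.inf_center_ne_bot hLp _ hN')
      exact hz1 (Subtype.ext ((Subgroup.eq_bot_iff_forall _).1 hbot z ⟨⟨z, hz2.2, rfl⟩, hz2.1⟩))
  intro a ha
  rw [Subgroup.mem_centralizer_iff]
  intro x hx
  obtain ⟨⟨z, hz, rfl⟩, -⟩ := hint.symm ▸ hx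
  exact congrArg Subtype.val ((Subgroup.mem_center_iff.1 hz ⟨a, ha⟩).symm)

end CfsgLib.CoreFree
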