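import Cfsg.Agent.PGroup.Frattini
import Mathlib.Algebra.Module.ZMod
import Mathlib.LinearAlgebra.Basis.VectorSpace
import Mathlib.Algebra.Group.Units.Hom
import Mathlib.Tactic.NoncommRing
import Mathlib.Tactic.Group

/-!
Pairs of rank-one unipotent endomorphisms in a group of odd order, and the action of a group on
the Frattini quotient of a normal `p`-subgroup.
-/

set_option autoImplicit false

open scoped commutatorElement

namespace CfsgLib.Transvection

section Linear

variable {X : Type*} [Group X] {p : ℕ} [Fact p.Prime] {V : Type*} [AddCommGroup V] [Module (ZMod p) V]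

/-- `ρ x - 1` has rank at most one and squares to zero. -/
def RankOne (ρ : X →* Module.End (ZMod p) V) (x : X) : Prop :=
  ∃ v : V, (ρ x - 1) v = 0 ∧ ∀ w : V, ∃ c : ZMod p, (ρ x - 1) w = c • v

variable {ρ : X →* Module.End (ZMod p) V}

theorem rank_one_conj (g : X) {x : X} (h : RankOne ρ x) : RankOne ρ (g * x * g⁻¹) := by
  obtain ⟨v, hv, hw⟩ := h
  have key : ∀ u, (ρ (g * x * g⁻¹) - 1) u = ρ g ((ρ x - 1) (ρ g⁻¹ u)) := by
    intro u
    have h1 : ρ g (ρ g⁻¹ u) = u := by
      rw [← Module.End.mul_apply, ← map_mul, mul_inv_cancel, map_one, Module.End.one_apply]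
    simp only [map_mul, LinearMap.sub_apply, Module.End.mul_apply, Module.End.one_apply, map_sub, h1]
  refine ⟨ρ g v, ?_, fun w => ?_⟩
  · have h1 : ρ g⁻¹ (ρ g v) = v := by
      rw [← Module.End.mul_apply, ← map_mul, inv_mul_cancel, map_one, Module.End.one_apply]
    rw [key, h1, hv, map_zero]
  · obtain ⟨c, hc⟩ := hw (ρ g⁻¹ w)
    exact ⟨c, by rw [key, hc, map_smul]⟩

theorem sq_eq_zero {a : Module.End (ZMod p) V} {v : V} (hv : a v = 0)
    (hw : ∀ w : V, ∃ c : ZMod p, a w = c • v) : a * a = 0 := by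
  refine LinearMap.ext fun w => ?_
  obtain ⟨c, hc⟩ := hw w
  simp [hc, hv]

/-- Powers of `1 + n` when `n ^ 3 = 0`. -/
theorem one_add_pow {R : Type*} [Ring R] {n : R} (h : n * n * n = 0) :
    ∀ k : ℕ, (1 + n) ^ k = 1 + (k : R) * n + (k.choose 2 : R) * (n * n) := by
  intro k
  induction k with
  | zero => simp
  | succ k ih =>
    rw [pow_succ, ih, Nat.choose_succ_succ, Nat.choose_one_right]
    push_cast
    simp only [mul_add, add_mul, mul_one, one_mul, mul_assoc] at *
    rw [h]
    simp only [mul_zero, add_zero]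
    abel

theorem cast_end_eq_zero {k : ℕ} (h : p ∣ k) : (k : Module.End (ZMod p) V) = 0 := by
  refine LinearMap.ext fun w => ?_
  rw [Module.End.natCast_apply, LinearMap.zero_apply, ← Nat.cast_smul_eq_nsmul (ZMod p),
    (ZMod.natCast_eq_zero_iff _ _).2 h, zero_smul]

theorem pow_p_eq_one_of_ab [Finite X] (hp2 : p ≠ 2) {x y : X} {a b : Module.End (ZMod p) V}
    (hx : ρ x = 1 + a) (hy : ρ y = 1 + b) (haa : a * a = 0) (hbb : b * b = 0) (hab : a * b = 0)
    {z : X} (hz : z ∈ Subgroup.closure ({x, y} : Set X)) : ρ z ^ p = 1 := by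
  rw [← Subgroup.mem_toSubmonoid, Subgroup.closure_toSubmonoid_of_finite] at hz
  have hT : ∃ α β δ : ZMod p, ρ z = 1 + (α • a + β • b + δ • (b * a)) := by
    induction hz using Submonoid.closure_induction with
    | mem w hw =>
      rcases hw with rfl | rfl
      · exact ⟨1, 0, 0, by simp [hx]⟩
      · exact ⟨0, 1, 0, by simp [hy]⟩
    | one => exact ⟨0, 0, 0, by simp⟩
    | mul u w _ _ hu hw =>
      obtain ⟨α, β, δ, hu⟩ := hu
      obtain ⟨α', β', δ', hw⟩ := hw
      refine ⟨α + α', β + β', δ + δ' + β * α', ?_⟩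
      have h1 : a * (b * a) = 0 := by rw [← mul_assoc, hab, zero_mul]
      have h2 : b * (b * a) = 0 := by rw [← mul_assoc, hbb, zero_mul]
      have h3 : (b * a) * a = 0 := by rw [mul_assoc, haa, mul_zero]
      have h4 : (b * a) * b = 0 := by rw [mul_assoc, hab, mul_zero]
      have h5 : (b * a) * (b * a) = 0 := by rw [mul_assoc, h1, mul_zero]
      rw [map_mul, hu, hw]
      simp only [add_mul, mul_add, one_mul, mul_one, smul_mul_assoc, mul_smul_comm, haa, hbb, hab, h1, h2, h3,
        h4, h5, smul_zero, add_zero, zero_add, smul_add, smul_smul, add_smul, mul_comm α' β]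
      abel
  obtain ⟨α, β, δ, hρ⟩ := hT
  set n := α • a + β • b + δ • (b * a) with hn
  have hnn : n * n * n = 0 := by
    have h1 : a * (b * a) = 0 := by rw [← mul_assoc, hab, zero_mul]
    have h2 : b * (b * a) = 0 := by rw [← mul_assoc, hbb, zero_mul]
    have h3 : (b * a) * a = 0 := by rw [mul_assoc, haa, mul_zero]
    have h4 : (b * a) * b = 0 := by rw [mul_assoc, hab, mul_zero]
    have h5 : (b * a) * (b * a) = 0 := by rw [mul_assoc, h1, mul_zero]
    rw [hn]
    simp only [add_mul, mul_add, smul_mul_assoc, mul_smul_comm, haa, hbb, hab, h1, h2, h3, h4, h5,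
      smul_zero, add_zero, zero_add]
  rw [hρ, one_add_pow hnn, cast_end_eq_zero dvd_rfl, cast_end_eq_zero ((Fact.out : p.Prime).dvd_choose_self two_ne_zero
    (lt_of_le_of_ne (Fact.out : p.Prime).two_le hp2.symm)), zero_mul, zero_mul, add_zero, add_zero]

theorem pow_apply_shift {a : Module.End (ZMod p) V} {v z : V} {t : ZMod p} (hv : a v = 0) (hz : a z = t • v)
    (n : ℕ) : ((1 + a) ^ n) z = z + ((n : ZMod p) * t) • v ∧ ((1 + a) ^ n) v = v := by
  induction n with
  | zero => simp
  | succ n ih =>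
    refine ⟨?_, ?_⟩
    · rw [pow_succ', Module.End.mul_apply, ih.1]
      simp [hv, hz, add_mul, add_smul]
      abel
    · rw [pow_succ', Module.End.mul_apply, ih.2]
      simp [hv]

/-- Two elements acting as rank-one unipotents in a group of odd order generate a subgroup
whose image has exponent `p`. -/
theorem pow_p_eq_one [Finite X] (hX : Odd (Nat.card X)) (hp2 : p ≠ 2) {x y : X}
    (hx : RankOne ρ x) (hy : RankOne ρ y) {z : X} (hz : z ∈ Subgroup.closure ({x, y} : Set X)) :
    ρ z ^ p = 1 := by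
  obtain ⟨v, hav, haw⟩ := hx
  obtain ⟨u, hbu, hbw⟩ := hy
  set a := ρ x - 1 with ha
  set b := ρ y - 1 with hb
  have hxa : ρ x = 1 + a := by rw [ha]; abel
  have hyb : ρ y = 1 + b := by rw [hb]; abel
  have haa := sq_eq_zero hav haw
  have hbb := sq_eq_zero hbu hbw
  obtain ⟨c1, hc1⟩ := haw u
  obtain ⟨c2, hc2⟩ := hbw v
  by_cases h1 : c1 = 0
  · refine pow_p_eq_one_of_ab hp2 hxa hyb haa hbb (LinearMap.ext fun w => ?_) hz
    obtain ⟨c, hc⟩ := hbw w
    simp [hc, hc1, h1]
  by_cases h2 : c2 = 0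
  · refine pow_p_eq_one_of_ab hp2 hyb hxa hbb haa (LinearMap.ext fun w => ?_) (by rwa [Set.pair_comm])
    obtain ⟨c, hc⟩ := haw w
    simp [hc, hc2, h2]
  -- a nondegenerate pair gives an element of even order
  by_cases hv0 : v = 0
  · refine pow_p_eq_one_of_ab hp2 hxa hyb haa hbb (LinearMap.ext fun w => ?_) hz
    obtain ⟨c, hc⟩ := haw (b w)
    simp [hc, hv0]
  exfalso
  set m := (c1⁻¹).val with hm
  set n := (-c2⁻¹).val with hn
  have hmc : ((m : ℕ) : ZMod p) * c1 = 1 := by rw [hm, ZMod.natCast_zmod_val, inv_mul_cancel₀ h1]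
  have hnc : ((n : ℕ) : ZMod p) * c2 = -1 := by rw [hn, ZMod.natCast_zmod_val, neg_mul, inv_mul_cancel₀ h2]
  set g := x ^ m * y ^ n * x ^ m with hg
  obtain ⟨hau, hafix⟩ := pow_apply_shift hav hc1 m
  obtain ⟨hbv, hbfix⟩ := pow_apply_shift hbu hc2 n
  rw [hmc, one_smul] at hau
  rw [hnc, neg_one_smul] at hbv
  have hgv : ρ g v = -u := by
    simp only [hg, map_mul, map_pow, hxa, hyb, Module.End.mul_apply]
    rw [hafix, hbv, map_add, map_neg, hafix, hau]
    abel
  have hgu : ρ g u = v := by
    simp only [hg, map_mul, map_pow, hxa, hyb, Module.End.mul_apply]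
    rw [hau, map_add, hbfix, hbv, map_add, map_add, map_neg, hafix, hau]
    abel
  have hg2 : ρ (g ^ 2) v = -v := by
    rw [pow_two, map_mul, Module.End.mul_apply, hgv, map_neg, hgu]
  have hg4 : ρ (g ^ 4) v = v := by
    rw [show g ^ 4 = g ^ 2 * g ^ 2 from by group, map_mul, Module.End.mul_apply, hg2, map_neg, hg2, neg_neg]
  have hfix : ∀ k : ℕ, ρ ((g ^ 4) ^ k) v = v := by
    intro k
    induction k with
    | zero => simp
    | succ k ih => rw [pow_succ, map_mul, Module.End.mul_apply, hg4, ih]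
  obtain ⟨j, hj⟩ := Odd.of_dvd_nat hX (orderOf_dvd_natCard g)
  have h6 : g ^ 2 = (g ^ 4) ^ (j + 1) := by
    rw [← pow_mul, show 4 * (j + 1) = 2 + (2 * j + 1) * 2 by ring, pow_add g 2, pow_mul g (2 * j + 1), ← hj,
      pow_orderOf_eq_one, one_pow, mul_one]
  have h7 : v + v = 0 := by
    have h9 := hfix (j + 1)
    rw [← h6, hg2] at h9
    conv_lhs => arg 1; rw [← h9]
    exact neg_add_cancel v
  have h8 : (2 : ZMod p) • v = 0 := by rw [two_smul]; exact h7
  rcases smul_eq_zero.1 h8 with h | h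
  · have : p ∣ 2 := (ZMod.natCast_eq_zero_iff 2 p).1 (by exact_mod_cast h)
    exact hp2 ((Nat.prime_dvd_prime_iff_eq Fact.out Nat.prime_two).1 this)
  · exact hv0 h

end Linear

section Frattini

variable {X : Type*} [Group X]

/-- The action of `X` on the Frattini quotient of a normal subgroup. -/
def quotAction (F : Subgroup X) [F.Normal] (g : X) : F ⧸ frattini F →* F ⧸ frattini F :=
  QuotientGroup.map (frattini F) (frattini F) (MulAut.conjNormal g).toMonoidHom (by
    have := Subgroup.characteristic_iff_comap_eq.1 (frattini_characteristic (G := F)) (MulAut.conjNormal g)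
    exact this.ge)

/-- The commutator `⁅x, f⁆` as an element of the normal subgroup. -/
def commElt (F : Subgroup X) [hF : F.Normal] (x : X) (f : F) : F :=
  ⟨⁅x, (f : X)⁆, mul_mem (hF.conj_mem f f.2 x) (inv_mem f.2)⟩

theorem quotAction_mk (F : Subgroup X) [F.Normal] (g : X) (f : F) :
    quotAction F g (QuotientGroup.mk f) = QuotientGroup.mk (MulAut.conjNormal g f) := rfl

theorem quotAction_one (F : Subgroup X) [F.Normal] (q : F ⧸ frattini F) : quotAction F 1 q = q := by
  obtain ⟨f, rfl⟩ := QuotientGroup.mk_surjective q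
  rw [quotAction_mk, map_one]; rfl

theorem quotAction_mul (F : Subgroup X) [F.Normal] (g h : X) (q : F ⧸ frattini F) :
    quotAction F (g * h) q = quotAction F g (quotAction F h q) := by
  obtain ⟨f, rfl⟩ := QuotientGroup.mk_surjective q
  rw [quotAction_mk, quotAction_mk, quotAction_mk, map_mul]; rfl

/-- The Frattini quotient of a `p`-group as abelian group. -/
@[reducible] def frattiniCommGroup [Finite X] {p : ℕ} [Fact p.Prime] {F : Subgroup X} [F.Normal]
    (hF : IsPGroup p F) : CommGroup (F ⧸ frattini F) :=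
  { (inferInstance : Group (F ⧸ frattini F)) with mul_comm := CfsgLib.PGroup.frattini_quotient_comm hF }

end Frattini

end CfsgLib.Transvection
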