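import Mathlib.GroupTheory.Focal
import Mathlib.GroupTheory.Complement
import Mathlib.GroupTheory.Sylow
import Mathlib.GroupTheory.Index
import Mathlib.Tactic.Group

/-!
A Hall subgroup whose iterated focal subgroups reach the trivial subgroup has a normal complement.
-/

set_option autoImplicit false

open scoped commutatorElement

namespace CfsgLib.FocalSeries

variable {G : Type*} [Group G]

theorem focalSubgroup_mono {K L : Subgroup G} (h : K ≤ L) : K.focalSubgroup ≤ L.focalSubgroup := by
  rw [Subgroup.focalSubgroup_def, Subgroup.focalSubgroup_def]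
  apply Subgroup.closure_mono
  rintro g ⟨hg, x, hx, u, rfl⟩
  exact ⟨h hg, x, h hx, u, rfl⟩

theorem relIndex_eq_index_of_sup [Finite G] {M H : Subgroup G} (hM : M.Normal) (h : M ⊔ H = ⊤) :
    H.relIndex M = H.index := by
  have h1 : (M ⊓ H).relIndex M * M.index = (M ⊓ H).index := Subgroup.relIndex_mul_index inf_le_left
  have h2 : (M ⊓ H).relIndex H * H.index = (M ⊓ H).index := Subgroup.relIndex_mul_index inf_le_right
  rw [Subgroup.inf_relIndex_left] at h1
  rw [Subgroup.inf_relIndex_right, ← Subgroup.relIndex_sup_right (K := M) (H := H), sup_comm, h,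
    Subgroup.relIndex_top_right] at h2
  rw [← h2, mul_comm M.index] at h1
  exact Nat.eq_of_mul_eq_mul_right (Nat.pos_of_ne_zero Subgroup.index_ne_zero_of_finite) h1

/-- The subgroup generated by the elements of a subgroup `M` of order prime to `d`. -/
theorem exists_next [Finite G] {H M : Subgroup G} (hM : M.Normal) (hMH : M ⊔ H = ⊤)
    (hHall : (Nat.card H).Coprime H.index) :
    ∃ N : Subgroup G, N.Normal ∧ N ⊔ H = ⊤ ∧ N ⊓ H ≤ (M ⊓ H).focalSubgroup := by
  set S : Set G := {x | x ∈ M ∧ (orderOf x).Coprime (Nat.card H)} with hS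
  set N : Subgroup G := Subgroup.closure S with hN
  have hNn : N.Normal := by
    constructor
    intro x hx g
    suffices N ≤ N.comap (MulAut.conj g).toMonoidHom by simpa using this hx
    rw [hN, Subgroup.closure_le]
    intro y hy
    refine Subgroup.subset_closure ⟨?_, ?_⟩
    · simpa using hM.conj_mem y hy.1 g
    · have : orderOf (g * y * g⁻¹) = orderOf y := MulEquiv.orderOf_eq (MulAut.conj g) y
      simpa [this] using hy.2
  have hNM : N ≤ M := by
    rw [hN, Subgroup.closure_le]; exact fun x hx => hx.1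
  set K : Subgroup G := M ⊓ H with hK
  have hKM : K ≤ M := inf_le_left
  have hidx : (K.subgroupOf M).index = H.index := by
    rw [← Subgroup.relIndex, hK, Subgroup.inf_relIndex_left]
    exact relIndex_eq_index_of_sup hM hMH
  refine ⟨N, hNn, ?_, ?_⟩
  · rw [← Subgroup.index_eq_one]
    have h1 : (N ⊔ H).index ∣ H.index := Subgroup.index_dvd_of_le le_sup_right
    by_contra hne
    obtain ⟨q, hq, hqd⟩ := Nat.exists_prime_and_dvd hne
    have := Fact.mk hq
    -- a Sylow `q`-subgroup of `M` lies in `N`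
    have hqH : ¬ q ∣ Nat.card H := fun h =>
      hq.not_dvd_one (hHall ▸ Nat.dvd_gcd h (hqd.trans h1))
    obtain ⟨Q⟩ : Nonempty (Sylow q M) := inferInstance
    have hQN : (Q : Subgroup M) ≤ N.subgroupOf M := by
      intro x hx
      refine Subgroup.subset_closure ⟨x.2, ?_⟩
      obtain ⟨k, hk⟩ := Q.2 ⟨x, hx⟩
      have h3 : orderOf (x : G) ∣ q ^ k := by
        rw [Subgroup.orderOf_coe]
        exact orderOf_dvd_of_pow_eq_one (congrArg Subtype.val hk)
      exact ((hq.coprime_iff_not_dvd.2 hqH).pow_left k).coprime_dvd_left h3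
    have h4 : ¬ q ∣ N.relIndex M := fun h =>
      Q.not_dvd_index (h.trans (Subgroup.index_dvd_of_le hQN))
    refine h4 (hqd.trans ?_)
    have h5 : (N ⊔ H).relIndex M = (N ⊔ H).index :=
      relIndex_eq_index_of_sup hM (by rw [← top_le_iff, ← hMH]; exact sup_le_sup_left le_sup_right _)
    rw [← h5]
    exact Subgroup.relIndex_dvd_of_le_left M le_sup_left
  · intro x ⟨hxN, hxH⟩
    have hxK : x ∈ K := ⟨hNM hxN, hxH⟩
    set K' : Subgroup M := K.subgroupOf M with hK'
    have hfoc : K'.focalSubgroup.map M.subtype ≤ K.focalSubgroup := by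
      rw [Subgroup.focalSubgroup_def, MonoidHom.map_closure, Subgroup.focalSubgroup_def]
      apply Subgroup.closure_mono
      rintro _ ⟨g, ⟨hg, a, ha, u, rfl⟩, rfl⟩
      exact ⟨hg, a, ha, u, map_commutatorElement M.subtype a u⟩
    let ψ : M →* K' ⧸ K'.focalSubgroupOf := K'.transferFocal
    have hker : N.subgroupOf M ≤ ψ.ker := by
      have h : N ≤ ψ.ker.map M.subtype := by
        rw [hN, Subgroup.closure_le]
        rintro y ⟨hyM, hy⟩
        refine ⟨⟨y, hyM⟩, ?_, rfl⟩
        apply orderOf_eq_one_iff.1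
        refine Nat.eq_one_of_dvd_coprimes hy ?_ ?_
        · exact (orderOf_map_dvd ψ _).trans (dvd_of_eq (Subgroup.orderOf_coe _).symm)
        · refine (orderOf_dvd_natCard _).trans ?_
          refine (Subgroup.card_quotient_dvd_card _).trans ?_
          rw [hK', Nat.card_congr (Subgroup.subgroupOfEquivOfLe hKM).toEquiv]
          exact Subgroup.card_dvd_of_le inf_le_right
      intro y hy
      obtain ⟨z, hz, hzy⟩ := h hy
      exact Subtype.ext hzy ▸ hz
    set x' : K' := ⟨⟨x, hKM hxK⟩, hxK⟩
    have h6 : ψ (x' : M) = 1 := hker (show x ∈ N from hxN)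
    rw [Subgroup.transferFocal_eq_pow] at h6
    have h7 : (x' : K' ⧸ K'.focalSubgroupOf) = 1 := by
      apply orderOf_eq_one_iff.1
      refine Nat.eq_one_of_dvd_coprimes (hHall) ?_ ?_
      · refine (orderOf_dvd_natCard _).trans ?_
        refine (Subgroup.card_quotient_dvd_card _).trans ?_
        rw [hK', Nat.card_congr (Subgroup.subgroupOfEquivOfLe hKM).toEquiv]
        exact Subgroup.card_dvd_of_le inf_le_right
      · rw [← hidx]
        exact orderOf_dvd_of_pow_eq_one h6
    exact hfoc ⟨(x' : M), (QuotientGroup.eq_one_iff x').1 h7, rfl⟩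

/-- Iterated focal subgroups reaching the trivial subgroup give a normal complement. -/
theorem exists_normal_complement [Finite G] {H : Subgroup G} (hHall : (Nat.card H).Coprime H.index)
    {n : ℕ} (hfoc : (fun K : Subgroup G => Subgroup.focalSubgroup K)^[n] H = ⊥) :
    ∃ N : Subgroup G, N.Normal ∧ Subgroup.IsComplement' N H := by
  have key : ∀ i, ∃ N : Subgroup G, N.Normal ∧ N ⊔ H = ⊤ ∧
      N ⊓ H ≤ (fun K : Subgroup G => Subgroup.focalSubgroup K)^[i] H := by
    intro i
    induction i with
    | zero => exact ⟨⊤, inferInstance, top_sup_eq _, inf_le_right⟩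
    | succ i ih =>
      obtain ⟨M, hM, hMH, hle⟩ := ih
      obtain ⟨N, hN, hNH, hNle⟩ := exists_next hM hMH hHall
      refine ⟨N, hN, hNH, ?_⟩
      rw [Function.iterate_succ_apply']
      exact hNle.trans (focalSubgroup_mono hle)
  obtain ⟨N, hN, hNH, hle⟩ := key n
  rw [hfoc, le_bot_iff] at hle
  refine ⟨N, hN, Subgroup.isComplement'_of_disjoint_and_mul_eq_univ (disjoint_iff.2 hle) ?_⟩
  rw [← Subgroup.normal_mul, hNH, Subgroup.coe_top]

/-- For a normal subgroup `P` with `G = P · C(P)`, conjugation on `P` is inner in `P`. -/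
theorem conj_eq_of_sup_centralizer {P : Subgroup G} (hP : P.Normal)
    (h : P ⊔ Subgroup.centralizer (P : Set G) = ⊤) (g : G) :
    ∃ a ∈ P, ∀ y ∈ P, g * y * g⁻¹ = a * y * a⁻¹ := by
  obtain ⟨a, ha, b, hb, rfl⟩ := Subgroup.mem_sup_of_normal_left.1
    (show g ∈ P ⊔ Subgroup.centralizer (P : Set G) from h ▸ Subgroup.mem_top g)
  refine ⟨a, ha, fun y hy => ?_⟩
  have h1 : y * b = b * y := Subgroup.mem_centralizer_iff.1 hb y hy
  calc a * b * y * (a * b)⁻¹ = a * (b * y) * b⁻¹ * a⁻¹ := by group
    _ = _ := by rw [← h1]; group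

end CfsgLib.FocalSeries
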