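import Mathlib.GroupTheory.Sylow
import Mathlib.GroupTheory.Abelianization.Defs
import Mathlib.GroupTheory.Nilpotent
import Mathlib.GroupTheory.Solvable
import Mathlib.Tactic.Group

/-!
Products of two abelian subgroups: Itô's theorem, and the existence of a nontrivial normal subgroup
inside one of the factors.
-/

set_option autoImplicit false

open scoped commutatorElement

namespace CfsgLib.AbelianFactors

variable {G : Type*} [Group G]

/-- `BA = G` as well. -/
theorem exists_rev {A B : Subgroup G} (hAB : ∀ g : G, ∃ a ∈ A, ∃ b ∈ B, g = a * b) (g : G) :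
    ∃ b ∈ B, ∃ a ∈ A, g = b * a := by
  obtain ⟨a, ha, b, hb, h⟩ := hAB g⁻¹
  exact ⟨b⁻¹, B.inv_mem hb, a⁻¹, A.inv_mem ha, by rw [← mul_inv_rev, ← h, inv_inv]⟩

variable {A B : Subgroup G} [hA : IsMulCommutative A] [hB : IsMulCommutative B]
  (hAB : ∀ g : G, ∃ a ∈ A, ∃ b ∈ B, g = a * b)

include hA hAB in
theorem conj_left {x b : G} (hx : x ∈ A) :
    ∃ b₂ ∈ B, ∀ a ∈ A, x * ⁅a, b⁆ * x⁻¹ = ⁅a, b₂⁆ := by
  obtain ⟨b₂, hb₂, a₂, ha₂, h⟩ := exists_rev hAB (x * b * x⁻¹)
  refine ⟨b₂, hb₂, fun a ha => ?_⟩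
  have h1 : x * a * x⁻¹ = a := by rw [setLike_mul_comm hx ha, mul_inv_cancel_right]
  calc x * ⁅a, b⁆ * x⁻¹ = ⁅x * a * x⁻¹, x * b * x⁻¹⁆ := by simp only [commutatorElement_def]; group
    _ = ⁅a, b₂ * a₂⁆ := by rw [h1, h]
    _ = ⁅a, b₂⁆ := by
      have h2 : a * a₂ * a⁻¹ = a₂ := by rw [setLike_mul_comm ha ha₂, mul_inv_cancel_right]
      simp only [commutatorElement_def]
      calc a * (b₂ * a₂) * a⁻¹ * (b₂ * a₂)⁻¹ = a * b₂ * a⁻¹ * (a * a₂ * a⁻¹) * a₂⁻¹ * b₂⁻¹ := by group
        _ = _ := by rw [h2]; group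

include hB hAB in
theorem conj_right {y a : G} (hy : y ∈ B) :
    ∃ a₃ ∈ A, ∀ b ∈ B, y * ⁅a, b⁆ * y⁻¹ = ⁅a₃, b⁆ := by
  obtain ⟨a₃, ha₃, b₃, hb₃, h⟩ := hAB (y * a * y⁻¹)
  refine ⟨a₃, ha₃, fun b hb => ?_⟩
  have h1 : y * b * y⁻¹ = b := by rw [setLike_mul_comm hy hb, mul_inv_cancel_right]
  have h2 : b₃ * b * b₃⁻¹ = b := by rw [setLike_mul_comm hb₃ hb, mul_inv_cancel_right]
  calc y * ⁅a, b⁆ * y⁻¹ = ⁅y * a * y⁻¹, y * b * y⁻¹⁆ := by simp only [commutatorElement_def]; group
    _ = ⁅a₃ * b₃, b⁆ := by rw [h1, h]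
    _ = ⁅a₃, b⁆ := by
      simp only [commutatorElement_def]
      calc a₃ * b₃ * b * (a₃ * b₃)⁻¹ * b⁻¹ = a₃ * (b₃ * b * b₃⁻¹) * a₃⁻¹ * b⁻¹ := by group
        _ = _ := by rw [h2]

include hA hB hAB in
theorem commute_commutatorElement {a b x y : G} (ha : a ∈ A) (hb : b ∈ B) (hx : x ∈ A) (hy : y ∈ B) :
    Commute ⁅a, b⁆ ⁅y⁻¹, x⁻¹⁆ := by
  obtain ⟨b₂, hb₂, h2⟩ := conj_left (b := b) hAB hx
  obtain ⟨a₃, ha₃, h3⟩ := conj_right (a := a) hAB hy
  have e1 : (x * y) * ⁅a, b⁆ * (x * y)⁻¹ = ⁅a₃, b₂⁆ := by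
    calc (x * y) * ⁅a, b⁆ * (x * y)⁻¹ = x * (y * ⁅a, b⁆ * y⁻¹) * x⁻¹ := by group
      _ = _ := by rw [h3 b hb, h2 a₃ ha₃]
  have e2 : (y * x) * ⁅a, b⁆ * (y * x)⁻¹ = ⁅a₃, b₂⁆ := by
    calc (y * x) * ⁅a, b⁆ * (y * x)⁻¹ = y * (x * ⁅a, b⁆ * x⁻¹) * y⁻¹ := by group
      _ = _ := by rw [h2 a ha, h3 b₂ hb₂]
  have e3 : ⁅y⁻¹, x⁻¹⁆ = (x * y)⁻¹ * (y * x) := by simp only [commutatorElement_def]; group
  change ⁅a, b⁆ * ⁅y⁻¹, x⁻¹⁆ = ⁅y⁻¹, x⁻¹⁆ * ⁅a, b⁆
  rw [e3]
  calc ⁅a, b⁆ * ((x * y)⁻¹ * (y * x))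
      = (x * y)⁻¹ * ((x * y) * ⁅a, b⁆ * (x * y)⁻¹) * (y * x) := by group
    _ = _ := by rw [e1, ← e2]; group

include hA hB hAB in
theorem commutator_eq_bracket : commutator G = ⁅A, B⁆ := by
  refine le_antisymm ?_ (Subgroup.commutator_mono le_top le_top)
  have hn : ⁅A, B⁆.Normal := by
    constructor
    intro c hc g
    suffices hgen : ∀ g : G, (∀ a ∈ A, ∀ b ∈ B, g * ⁅a, b⁆ * g⁻¹ ∈ ⁅A, B⁆) →
        g * c * g⁻¹ ∈ ⁅A, B⁆ by
      obtain ⟨x, hx, y, hy, rfl⟩ := hAB g
      refine hgen _ fun a ha b hb => ?_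
      obtain ⟨b₂, hb₂, h2⟩ := conj_left (b := b) hAB hx
      obtain ⟨a₃, ha₃, h3⟩ := conj_right (a := a) hAB hy
      have e : (x * y) * ⁅a, b⁆ * (x * y)⁻¹ = x * (y * ⁅a, b⁆ * y⁻¹) * x⁻¹ := by group
      rw [e, h3 b hb, h2 a₃ ha₃]
      exact Subgroup.commutator_mem_commutator ha₃ hb₂
    intro g hg
    have h : ⁅A, B⁆ ≤ (⁅A, B⁆).comap (MulAut.conj g).toMonoidHom :=
      Subgroup.commutator_le.2 fun a ha b hb => by
        simp only [Subgroup.mem_comap, MulEquiv.coe_toMonoidHom, MulAut.conj_apply]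
        exact hg a ha b hb
    simpa using h hc
  rw [commutator_def, Subgroup.commutator_le]
  intro g _ h _
  rw [← QuotientGroup.eq_one_iff]
  have hab : ∀ a ∈ A, ∀ b ∈ B, Commute (QuotientGroup.mk' ⁅A, B⁆ a) (QuotientGroup.mk' ⁅A, B⁆ b) := by
    intro a ha b hb
    rw [← commutatorElement_eq_one_iff_commute, ← map_commutatorElement]
    exact (QuotientGroup.eq_one_iff _).2 (Subgroup.commutator_mem_commutator ha hb)
  obtain ⟨a, ha, b, hb, rfl⟩ := hAB g
  obtain ⟨a', ha', b', hb', rfl⟩ := hAB h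
  change QuotientGroup.mk' ⁅A, B⁆ _ = 1
  rw [map_commutatorElement, commutatorElement_eq_one_iff_commute, map_mul, map_mul]
  have haa : Commute (QuotientGroup.mk' ⁅A, B⁆ a) (QuotientGroup.mk' ⁅A, B⁆ a') := by
    change _ * _ = _ * _; rw [← map_mul, ← map_mul, setLike_mul_comm ha ha']
  have hbb : Commute (QuotientGroup.mk' ⁅A, B⁆ b) (QuotientGroup.mk' ⁅A, B⁆ b') := by
    change _ * _ = _ * _; rw [← map_mul, ← map_mul, setLike_mul_comm hb hb']
  exact (haa.mul_right (hab a ha b' hb')).mul_left ((hab a' ha' b hb).symm.mul_right hbb)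

include hA hB hAB in
theorem isMulCommutative_commutator : IsMulCommutative (commutator G) := by
  rw [commutator_eq_bracket hAB]
  refine Subgroup.isMulCommutative_closure ?_
  rintro _ ⟨a, ha, b, hb, rfl⟩ _ ⟨a', ha', b', hb', rfl⟩
  have h := commute_commutatorElement hAB ha hb (A.inv_mem ha') (B.inv_mem hb')
  rw [inv_inv, inv_inv] at h
  have h2 := h.inv_right
  rw [commutatorElement_inv] at h2
  exact h2.eq

include hA hB hAB in
theorem derivedSeries_two_eq_bot : derivedSeries G 2 = ⊥ := by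
  rw [derivedSeries_succ, derivedSeries_one, Subgroup.commutator_eq_bot_iff_le_centralizer]
  have := isMulCommutative_commutator hAB
  intro x hx
  exact Subgroup.mem_centralizer_iff.2 fun y hy => setLike_mul_comm hy hx

omit hA hB in
include hAB in
/-- A conjugate of an element of `A` lying in `B` is trivial when `A ∩ B = 1`. -/
theorem eq_one_of_conj (hA : IsMulCommutative A) (hB : IsMulCommutative B) (hint : A ⊓ B = ⊥)
    {a g : G} (ha : a ∈ A) (hb : g * a * g⁻¹ ∈ B) : a = 1 := by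
  obtain ⟨β, hβ, α, hα, rfl⟩ := exists_rev hAB g
  have h1 : α * a * α⁻¹ = a := by rw [setLike_mul_comm hα ha, mul_inv_cancel_right]
  have hb' : β * a * β⁻¹ ∈ B := by
    have e : β * α * a * (β * α)⁻¹ = β * (α * a * α⁻¹) * β⁻¹ := by group
    rwa [e, h1] at hb
  have h2 : a ∈ B := by
    have := B.mul_mem (B.mul_mem (B.inv_mem hβ) hb') hβ
    simpa [mul_assoc] using this
  exact (Subgroup.eq_bot_iff_forall _).1 hint a ⟨ha, h2⟩

include hA hB hAB in
theorem exists_normal_le_factor [Finite G] [Nontrivial G] :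
    ∃ N : Subgroup G, N.Normal ∧ N ≠ ⊥ ∧ (N ≤ A ∨ N ≤ B) := by
  have hcentral : ∀ z : G, z ∈ Subgroup.center G → z ≠ 1 →
      ∃ N : Subgroup G, N.Normal ∧ N ≠ ⊥ ∧ (z ∈ A → N ≤ A) ∧ (z ∈ B → N ≤ B) := by
    intro z hz hz1
    refine ⟨Subgroup.zpowers z, ⟨fun x hx g => ?_⟩, by simpa using hz1,
      fun h => Subgroup.zpowers_le.2 h, fun h => Subgroup.zpowers_le.2 h⟩
    have := Subgroup.zpowers_le.2 hz hx
    rwa [Subgroup.mem_center_iff.1 this g, mul_inv_cancel_right]
  have hcen : ∀ z, (∀ a ∈ A, a * z = z * a) → (∀ b ∈ B, b * z = z * b) → z ∈ Subgroup.center G := by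
    intro z h1 h2
    refine Subgroup.mem_center_iff.2 fun g => ?_
    obtain ⟨a, ha, b, hb, rfl⟩ := hAB g
    rw [mul_assoc, h2 b hb, ← mul_assoc, h1 a ha, mul_assoc]
  by_cases hZ : Subgroup.center G = ⊥
  swap
  · obtain ⟨z, hz, hz1⟩ := Subgroup.ne_bot_iff_exists_ne_one.1 hZ |> fun ⟨⟨z, hz⟩, h⟩ =>
      (⟨z, hz, fun e => h (Subtype.ext e)⟩ : ∃ z ∈ Subgroup.center G, z ≠ 1)
    obtain ⟨a, ha, b, hb, hzab⟩ := hAB z
    have haz : a ∈ Subgroup.center G := by
      refine hcen a (fun x hx => setLike_mul_comm hx ha) (fun y hy => ?_)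
      have : a = z * b⁻¹ := by rw [hzab]; group
      rw [this, ← mul_assoc, Subgroup.mem_center_iff.1 hz y, mul_assoc, mul_assoc,
        setLike_mul_comm hy (B.inv_mem hb)]
    by_cases ha1 : a = 1
    · obtain ⟨N, hN, hN1, -, hNB⟩ := hcentral z hz hz1
      exact ⟨N, hN, hN1, Or.inr (hNB (by rwa [hzab, ha1, one_mul]))⟩
    · obtain ⟨N, hN, hN1, hNA, -⟩ := hcentral a haz ha1
      exact ⟨N, hN, hN1, Or.inl (hNA ha)⟩
  have hint : A ⊓ B = ⊥ := by
    rw [eq_bot_iff, ← hZ]
    exact fun x hx => hcen x (fun a ha => setLike_mul_comm ha hx.1) (fun b hb => setLike_mul_comm hb hx.2)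
  set K : Subgroup G := commutator G with hK
  have hKc : IsMulCommutative K := isMulCommutative_commutator hAB
  have hKne : K ≠ ⊥ := by
    intro h
    refine (Subgroup.nontrivial_iff_ne_bot _).1 (?_ : Nontrivial (Subgroup.center G)) hZ
    have htop : Subgroup.center G = ⊤ := by
      rw [eq_top_iff]
      intro x _
      exact Subgroup.mem_center_iff.2 fun g => commutatorElement_eq_one_iff_mul_comm.1
        ((Subgroup.eq_bot_iff_forall _).1 h _
          (Subgroup.commutator_mem_commutator (Subgroup.mem_top g) (Subgroup.mem_top x)))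
    rw [htop]
    exact (Subgroup.topEquiv (G := G)).toEquiv.nontrivial
  have h1K : Nat.card K ≠ 1 := fun h => hKne (K.card_eq_one.1 h)
  set p := (Nat.card K).minFac
  have hp : p.Prime := Nat.minFac_prime h1K
  have := Fact.mk hp
  obtain ⟨x₀, hx₀⟩ := exists_prime_orderOf_dvd_card' (G := K) p (Nat.minFac_dvd _)
  set D : Subgroup G := sSup {N : Subgroup G | N.Normal ∧ IsPGroup p N} with hD
  have hDn : D.Normal := Subgroup.sSup_normal _ fun _ h => h.1
  have hDp : IsPGroup p D := Sylow.sSup_of_normal _ (fun _ h => h.2) (fun _ h => h.1)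
  have hKD : ∀ k ∈ K, ∀ i : ℕ, k ^ p ^ i = 1 → k ∈ D := by
    intro k hk i hki
    let Kp : Subgroup G :=
      { carrier := {y | y ∈ K ∧ ∃ j : ℕ, y ^ p ^ j = 1}
        one_mem' := ⟨one_mem _, 0, by simp⟩
        mul_mem' := by
          rintro u v ⟨hu, j, hj⟩ ⟨hv, l, hl⟩
          refine ⟨mul_mem hu hv, j + l, ?_⟩
          rw [(show Commute u v from setLike_mul_comm hu hv).mul_pow, pow_add, pow_mul, hj, one_pow,
            mul_comm (p ^ j), pow_mul, hl, one_pow, one_mul]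
        inv_mem' := by
          rintro u ⟨hu, j, hj⟩
          exact ⟨inv_mem hu, j, by rw [inv_pow, hj, inv_one]⟩ }
    have hKn : Kp.Normal := by
      constructor
      rintro y ⟨hy, j, hj⟩ g
      exact ⟨Subgroup.Normal.conj_mem inferInstance y hy g, j,
        by rw [conj_pow, hj, mul_one, mul_inv_cancel]⟩
    have hKp : IsPGroup p Kp := fun ⟨y, hy, j, hj⟩ => ⟨j, Subtype.ext hj⟩
    exact le_sSup (show Kp ∈ {N : Subgroup G | N.Normal ∧ IsPGroup p N} from ⟨hKn, hKp⟩) ⟨hk, i, hki⟩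
  have hDne : D ≠ ⊥ := by
    intro h
    have h2 := hKD (x₀ : G) x₀.2 1 (by
      rw [pow_one, ← hx₀, ← Subgroup.coe_pow, pow_orderOf_eq_one, Subgroup.coe_one])
    rw [h, Subgroup.mem_bot] at h2
    rw [Subtype.ext (a1 := x₀) (a2 := 1) h2, orderOf_one] at hx₀
    exact hp.ne_one hx₀.symm
  -- `D` is factorized
  have hfac : ∀ d ∈ D, ∀ a ∈ A, ∀ b ∈ B, d = a * b → a ∈ D := by
    intro d hd a ha b hb hdab
    set E : Subgroup G := D ⊔ Subgroup.zpowers a with hE
    have hbE : b ∈ E := by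
      have : b = a⁻¹ * d := by rw [hdab]; group
      rw [this]
      exact mul_mem (inv_mem (Subgroup.mem_sup_right (Subgroup.mem_zpowers a))) (Subgroup.mem_sup_left hd)
    have hE' : E = D ⊔ Subgroup.zpowers b := by
      refine le_antisymm (sup_le le_sup_left (Subgroup.zpowers_le.2 ?_))
        (sup_le le_sup_left (Subgroup.zpowers_le.2 hbE))
      have : a = d * b⁻¹ := by rw [hdab]; group
      rw [this]
      exact mul_mem (Subgroup.mem_sup_left hd) (inv_mem (Subgroup.mem_sup_right (Subgroup.mem_zpowers b)))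
    have hEn : E.Normal := by
      set π := QuotientGroup.mk' D
      have hc : ∀ g : G, Commute (π a) (π g) := by
        intro g
        have hπab : π a = (π b)⁻¹ := by
          rw [eq_inv_iff_mul_eq_one, ← map_mul, ← hdab]
          exact (QuotientGroup.eq_one_iff d).2 hd
        obtain ⟨α, hα, β, hβ, rfl⟩ := hAB g
        rw [map_mul]
        refine Commute.mul_right ?_ ?_
        · change _ * _ = _ * _; rw [← map_mul, ← map_mul, setLike_mul_comm ha hα]
        · rw [hπab]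
          refine Commute.inv_left ?_
          change _ * _ = _ * _; rw [← map_mul, ← map_mul, setLike_mul_comm hb hβ]
      constructor
      intro y hy g
      suffices E ≤ E.comap (MulAut.conj g).toMonoidHom by simpa using this hy
      refine sup_le (fun z hz => ?_) (Subgroup.zpowers_le.2 ?_)
      · simpa using Subgroup.mem_sup_left (T := Subgroup.zpowers a) (hDn.conj_mem z hz g)
      · simp only [Subgroup.mem_comap, MulEquiv.coe_toMonoidHom, MulAut.conj_apply]
        have h1 : g * a * g⁻¹ * a⁻¹ ∈ D := by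
          rw [← QuotientGroup.eq_one_iff]
          change π (g * a * g⁻¹ * a⁻¹) = 1
          rw [map_mul, map_mul, map_mul, map_inv, map_inv, ← (hc g).eq]; group
        have h2 : g * a * g⁻¹ = g * a * g⁻¹ * a⁻¹ * a := by group
        rw [h2]
        exact mul_mem (Subgroup.mem_sup_left h1) (Subgroup.mem_sup_right (Subgroup.mem_zpowers a))
    suffices hEp : IsPGroup p E by
      exact le_sSup (show E ∈ {N : Subgroup G | N.Normal ∧ IsPGroup p N} from ⟨hEn, hEp⟩)
        (Subgroup.mem_sup_right (Subgroup.mem_zpowers a))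
    obtain ⟨i, hi⟩ := IsPGroup.iff_card.1 hDp
    obtain ⟨k, hk⟩ : ∃ k, orderOf a = p ^ k := by
      refine ⟨_, Nat.eq_prime_pow_of_unique_prime_dvd (orderOf_pos a).ne' fun {r} hr hrd => ?_⟩
      by_contra hrp
      have := Fact.mk hr
      obtain ⟨z, hz⟩ := exists_prime_orderOf_dvd_card' (G := Subgroup.zpowers a) r
        (by rwa [Nat.card_zpowers])
      have hzA : (z : G) ∈ A := Subgroup.zpowers_le.2 ha z.2
      set f := (orderOf b).factorization r with hf
      set b' := b ^ (orderOf b / r ^ f) with hb'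
      have hdvd : r ^ f ∣ orderOf b := Nat.ordProj_dvd _ _
      have hb'o : orderOf b' = r ^ f := by
        rw [hb', orderOf_pow_of_dvd (Nat.div_ne_zero_iff_of_dvd hdvd |>.2
          ⟨(orderOf_pos b).ne', pow_ne_zero _ hr.ne_zero⟩) (Nat.div_dvd_of_dvd hdvd),
          Nat.div_div_self hdvd (orderOf_pos b).ne']
      have hb'E : b' ∈ E := pow_mem hbE _
      have hcardE : Nat.card E = (D.relIndex (Subgroup.zpowers b)) * Nat.card D := by
        rw [← Subgroup.relIndex_sup_right, sup_comm (Subgroup.zpowers b), ← hE']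
        exact (Subgroup.card_eq_card_quotient_mul_card_subgroup (D.subgroupOf E)).trans
          (congrArg _ (Nat.card_congr (Subgroup.subgroupOfEquivOfLe le_sup_left).toEquiv))
      have hdiv : r ^ (Nat.card E).factorization r ∣ orderOf b := by
        have h1 : Nat.card E ∣ orderOf b * Nat.card D := by
          rw [hcardE, ← Nat.card_zpowers]
          exact Nat.mul_dvd_mul_right (Subgroup.relIndex_dvd_card _ _) _
        have h2 := (Nat.ordProj_dvd (Nat.card E) r).trans h1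
        rw [hi] at h2
        exact (((Nat.coprime_primes hr hp).2 hrp).pow _ _).dvd_of_dvd_mul_right h2
      have hfE : (Nat.card E).factorization r = f := by
        refine le_antisymm ((Nat.Prime.pow_dvd_iff_le_factorization hr (orderOf_pos b).ne').1 hdiv) ?_
        refine (Nat.Prime.pow_dvd_iff_le_factorization hr Nat.card_pos.ne').1 (hdvd.trans ?_)
        exact Subgroup.orderOf_dvd_natCard E hbE
      let S : Sylow r E := Sylow.ofCard (Subgroup.zpowers ⟨b', hb'E⟩)
        (by rw [Nat.card_zpowers, ← Subgroup.orderOf_coe, hb'o, hfE])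
      set z' : E := ⟨(z : G), (Subgroup.zpowers_le.2 (Subgroup.mem_sup_right (Subgroup.mem_zpowers a))) z.2⟩
      have hzp : IsPGroup r (Subgroup.zpowers z') := IsPGroup.of_card (n := 1) (by
        rw [Nat.card_zpowers, ← Subgroup.orderOf_coe, pow_one]
        exact (Subgroup.orderOf_coe z).trans hz)
      obtain ⟨T, hT⟩ := hzp.exists_le_sylow
      obtain ⟨g, hg⟩ := MulAction.exists_smul_eq E T S
      have h3 : g * z' * g⁻¹ ∈ (S : Subgroup E) := by
        rw [← hg, Sylow.coe_subgroup_smul]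
        exact ⟨z', hT (Subgroup.mem_zpowers z'), rfl⟩
      have h4 : (g : G) * z * (g : G)⁻¹ ∈ B := by
        obtain ⟨j, hj⟩ := Subgroup.mem_zpowers_iff.1 h3
        have h5 := congrArg Subtype.val hj
        simp only [SubgroupClass.coe_zpow, Subgroup.coe_mul, InvMemClass.coe_inv] at h5
        rw [← h5]
        exact zpow_mem (pow_mem hb _) j
      have h6 := eq_one_of_conj hAB hA hB hint hzA h4
      rw [show z = 1 from Subtype.ext h6, orderOf_one] at hz
      exact hr.ne_one hz.symm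
    obtain ⟨l, -, hl⟩ := (Nat.dvd_prime_pow hp).1 (show Nat.card E ∣ p ^ (k + i) from by
      have : Nat.card E = (D.relIndex (Subgroup.zpowers a)) * Nat.card D := by
        rw [← Subgroup.relIndex_sup_right, sup_comm (Subgroup.zpowers a), ← hE]
        exact (Subgroup.card_eq_card_quotient_mul_card_subgroup (D.subgroupOf E)).trans
          (congrArg _ (Nat.card_congr (Subgroup.subgroupOfEquivOfLe le_sup_left).toEquiv))
      rw [this, pow_add, ← hk, ← Nat.card_zpowers, ← hi]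
      exact Nat.mul_dvd_mul_right (Subgroup.relIndex_dvd_card _ _) _)
    exact IsPGroup.of_card hl
  -- the centre of `D`
  set X : Subgroup G := D ⊓ Subgroup.centralizer (D : Set G) with hX
  have hXn : X.Normal := inferInstance
  have hXne : X ≠ ⊥ := by
    have : Nontrivial D := (Subgroup.nontrivial_iff_ne_bot D).2 hDne
    have := hDp.center_nontrivial
    obtain ⟨⟨z, hz⟩, hz1⟩ := exists_ne (1 : Subgroup.center D)
    intro h
    refine hz1 (Subtype.ext (Subtype.ext ((Subgroup.eq_bot_iff_forall _).1 h (z : G) ⟨z.2, ?_⟩)))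
    exact Subgroup.mem_centralizer_iff.2 fun d hd =>
      congrArg Subtype.val (Subgroup.mem_center_iff.1 hz ⟨d, hd⟩)
  have hXfac : ∀ x ∈ X, ∀ a ∈ A, ∀ b ∈ B, x = a * b → a ∈ X ∧ b ∈ X := by
    intro x hx a ha b hb hxab
    have haD := hfac x hx.1 a ha b hb hxab
    have hbD : b ∈ D := by
      have : b = a⁻¹ * x := by rw [hxab]; group
      rw [this]; exact mul_mem (inv_mem haD) hx.1
    have haX : a ∈ X := by
      refine ⟨haD, Subgroup.mem_centralizer_iff.2 fun d hd => ?_⟩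
      obtain ⟨a', ha', b', hb', rfl⟩ := hAB d
      have ha'D := hfac _ hd a' ha' b' hb' rfl
      have hb'D : b' ∈ D := by
        have h : a'⁻¹ * (a' * b') ∈ D := mul_mem (inv_mem ha'D) hd
        simpa using h
      have h1 : Commute b' x := Subgroup.mem_centralizer_iff.1 hx.2 b' hb'D
      have h2 : Commute b' b := setLike_mul_comm hb' hb
      have h3 : a = x * b⁻¹ := by rw [hxab]; group
      have h4 : Commute b' a := h3 ▸ h1.mul_right h2.inv_right
      have h5 : Commute a' a := setLike_mul_comm ha' ha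
      exact (h5.mul_left h4).eq
    refine ⟨haX, ?_⟩
    have : b = a⁻¹ * x := by rw [hxab]; group
    rw [this]; exact mul_mem (inv_mem haX) hx
  have hKX : ∀ k ∈ K, ∀ y ∈ X, Commute k y := by
    intro k hk y hy
    set o := orderOf k with ho
    obtain ⟨i, m, hm, him⟩ := Nat.exists_eq_pow_mul_and_not_dvd (orderOf_pos k).ne' p hp.ne_one
    have hkm : Commute (k ^ m) y := by
      have h := hKD (k ^ m) (pow_mem hk m) i (by rw [← pow_mul, mul_comm, ← him, pow_orderOf_eq_one])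
      exact (Subgroup.mem_centralizer_iff.1 hy.2 _ h)
    have hkq : Commute (k ^ p ^ i) y := by
      set q := k ^ p ^ i with hq
      have hqK : q ∈ K := pow_mem hk _
      set c := y * q * y⁻¹ * q⁻¹ with hc
      have hcK : c ∈ K := mul_mem (Subgroup.Normal.conj_mem inferInstance q hqK y) (inv_mem hqK)
      have hcD : c ∈ D := by
        have e : c = y * (q * y⁻¹ * q⁻¹) := by rw [hc]; group
        rw [e]; exact mul_mem hy.1 (hDn.conj_mem _ (inv_mem hy.1) q)
      have hqm : q ^ m = 1 := by rw [hq, ← pow_mul, ← him, pow_orderOf_eq_one]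
      have hcm : c ^ m = 1 := by
        have h1 : (c * q) ^ m = 1 := by
          rw [show c * q = y * q * y⁻¹ by rw [hc]; group, conj_pow, hqm, mul_one, mul_inv_cancel]
        rwa [(show Commute c q from setLike_mul_comm hcK hqK).mul_pow, hqm, mul_one] at h1
      obtain ⟨j, hj⟩ := hDp ⟨c, hcD⟩
      have hc1 : c = 1 := by
        rw [← orderOf_eq_one_iff]
        refine Nat.eq_one_of_dvd_coprimes ((hp.coprime_iff_not_dvd.2 hm).pow_left j)
          (orderOf_dvd_of_pow_eq_one (congrArg Subtype.val hj)) (orderOf_dvd_of_pow_eq_one hcm)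
      refine (Commute.symm ?_)
      change y * q = q * y
      calc y * q = c * (q * y) := by rw [hc]; group
        _ = _ := by rw [hc1, one_mul]
    have hcop : Int.gcd (m : ℤ) ((p ^ i : ℕ) : ℤ) = 1 := by
      rw [Int.gcd_natCast_natCast]
      exact ((hp.coprime_iff_not_dvd.2 hm).pow_left i).symm
    obtain ⟨u, v, huv⟩ : ∃ u v : ℤ, (m : ℤ) * u + ((p ^ i : ℕ) : ℤ) * v = 1 := by
      refine ⟨Int.gcdA m (p ^ i : ℕ), Int.gcdB m (p ^ i : ℕ), ?_⟩
      rw [← Int.gcd_eq_gcd_ab, hcop]; rfl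
    have hk' : k = (k ^ m) ^ u * (k ^ p ^ i) ^ v := by
      rw [← zpow_natCast, ← zpow_mul, ← zpow_natCast k (p ^ i), ← zpow_mul, ← zpow_add, huv, zpow_one]
    rw [hk']
    exact (hkm.zpow_left u).mul_left (hkq.zpow_left v)
  by_cases hU : X ⊓ A = ⊥
  · refine ⟨X, hXn, hXne, Or.inr fun x hx => ?_⟩
    obtain ⟨a, ha, b, hb, hxab⟩ := hAB x
    have := hXfac x hx a ha b hb hxab
    rw [hxab, (Subgroup.eq_bot_iff_forall _).1 hU a ⟨this.1, ha⟩, one_mul]
    exact hb
  refine ⟨X ⊓ A, ⟨fun u hu g => ?_⟩, hU, Or.inl inf_le_right⟩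
  suffices h : ∀ b ∈ B, ∀ u ∈ X ⊓ A, b * u * b⁻¹ ∈ X ⊓ A by
    obtain ⟨b, hb, α, hα, rfl⟩ := exists_rev hAB g
    have e : b * α * u * (b * α)⁻¹ = b * (α * u * α⁻¹) * b⁻¹ := by group
    rw [e, setLike_mul_comm hα hu.2, mul_inv_cancel_right]
    exact h b hb u hu
  intro b hb u hu
  set y := b * u * b⁻¹ with hy
  have hyX : y ∈ X := hXn.conj_mem u hu.1 b
  obtain ⟨a', ha', v, hv, hyav⟩ := hAB y
  have hXy := hXfac y hyX a' ha' v hv hyav
  have hyA : ∀ α ∈ A, Commute α y := by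
    intro α hα
    set c := ⁅α, b⁆ with hc
    have hcK : c ∈ K := Subgroup.commutator_mem_commutator (Subgroup.mem_top _) (Subgroup.mem_top _)
    have hαu : α * u * α⁻¹ = u := by rw [setLike_mul_comm hα hu.2, mul_inv_cancel_right]
    have h1 : α * y * α⁻¹ = c * y * c⁻¹ := by
      calc α * y * α⁻¹ = c * (b * (α * u * α⁻¹) * b⁻¹) * c⁻¹ := by
            rw [hc, hy, commutatorElement_def]; group
        _ = _ := by rw [hαu]
    rw [(hKX c hcK y hyX).eq, mul_inv_cancel_right] at h1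
    exact mul_inv_eq_iff_eq_mul.1 h1
  have hvA : ∀ α ∈ A, α * v = v * α := by
    intro α hα
    have h2 : v = a'⁻¹ * y := by rw [hyav]; group
    rw [h2]
    exact ((show Commute α a' from setLike_mul_comm hα ha').inv_right.mul_right (hyA α hα)).eq
  have hv1 : v = 1 := by
    have h3 := hcen v hvA (fun β hβ => setLike_mul_comm hβ hv)
    rwa [hZ, Subgroup.mem_bot] at h3
  rw [hyav, hv1, mul_one]
  exact ⟨hXy.1, ha'⟩

end CfsgLib.AbelianFactors
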